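import Cfsg.Agent.Lib.Chev.B22Data
import Cfsg.Agent.Lib.Chev.FieldCongr

/-! # B₂(2) is the symmetric group of degree six -/

set_option autoImplicit false

namespace Cfsg.Agent.Lib.Chev.B22

open Cfsg.Lie Cfsg.Agent.Lib.Twisted Cfsg.Agent.Lib.Twisted.Sparse Cfsg.Agent.Lib.Twisted.Eval
open Cfsg.Agent.Lib.Chev.B22Data Cfsg.Agent.Lib.Chev.PermDiag
open _root_.Cfsg.Agent.Lib.PermComp

instance : Fact (Nat.Prime 2) := ⟨Nat.prime_two⟩

/-- The one-letter words. -/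
def Sw : Set (List (ℕ × ZMod 2)) := {W | ∃ (r : Fin 8) (t : ZMod 2), W = [((r : ℕ), t)]}

theorem group_eq : chevB2.group (ZMod 2) = chevB2.genSubgroup (ZMod 2) Sw := by
  unfold ChevalleyDatum.group ChevalleyDatum.genSubgroup
  congr 1
  ext g
  constructor
  · rintro ⟨r, t, h⟩
    refine ⟨[((r : ℕ), t)], ⟨⟨r, r.2⟩, t, rfl⟩, ?_⟩
    rw [h]
    simp [ChevalleyDatum.wordMat, ChevalleyDatum.x]
  · rintro ⟨W, ⟨r, t, rfl⟩, h⟩
    refine ⟨⟨r, r.2⟩, t, ?_⟩
    rw [h]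
    simp [ChevalleyDatum.wordMat, ChevalleyDatum.x, show (r : ℕ) < chevB2.nroots from r.2]

theorem letters_mem : ∀ (r : Fin 8) (t : ZMod 2), Eval.lettersOf [((r : ℕ), t)] ∈ b_ents.map (·.1) := by
  decide +kernel

theorem ents_of : ∀ ent ∈ b_ents, ∃ (r : Fin 8) (t : ZMod 2), Eval.lettersOf [((r : ℕ), t)] = ent.1 := by
  decide +kernel

theorem oks : ∀ (r : Fin 8), okRoot chevB2 (r : ℕ) = true := by decide +kernel

theorem hid1 : p1_mask = 2 ^ p1_w - 1 ∧ ∀ i < p1_n, Core.app p1_w p1_mask p1_idc i = i := by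
  decide +kernel

theorem hid2 : p2_mask = 2 ^ p2_w - 1 ∧ ∀ i < p2_n, Core.app p2_w p2_mask p2_idc i = i := by
  decide +kernel

theorem exists_rep1 : ∀ c ∈ c1_T, ∃ g, Core.Rep 5 31 (Equiv.refl (Fin 15)) c g := by
  intro c hc
  rw [← ents_codes] at hc
  obtain ⟨ent, hent, rfl⟩ := List.mem_map.1 hc
  have h := (Core.allL_eq_true _ _).1 b_ents_ok ent hent
  rw [Bridge.entOK, Core.ifB_eq_true] at h
  exact Simple.exists_rep_of_valid hid1.1 hid1.2 h.1

theorem valid2 : ∀ c ∈ c2_T, Simple.validB p2_n p2_w p2_mask p2_idc c = true := by decide +kernel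

theorem exists_rep2 : ∀ c ∈ c2_T, ∃ g, Core.Rep 5 31 (Equiv.refl (Fin 6)) c g := by
  intro c hc
  exact Simple.exists_rep_of_valid hid2.1 hid2.2 (valid2 c hc)

theorem exists_rep3 : ∀ c ∈ b_triples.map (·.2.2), ∃ g, Core.Rep 5 31 (eSum 15 6) c g := by
  intro c hc
  obtain ⟨x, hx, rfl⟩ := List.mem_map.1 hc
  obtain ⟨g1, h1⟩ := exists_rep1 x.1 (by rw [← triples_1]; exact List.mem_map_of_mem hx)
  obtain ⟨g2, h2⟩ := exists_rep2 x.2.1 (by rw [← triples_2]; exact List.mem_map_of_mem hx)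
  exact ⟨_, rep_sum (triples_ok x hx) h1 h2⟩

theorem c3_ok' : Core.checkAll (15 + 6) 5 31 p3_L p3_maskL p3_idc (b_triples.map (·.2.2)) c3_prog c3_levels = true := by
  rw [triples_3]
  exact c3_ok

theorem card3 : Nat.card (Core.H 5 31 (eSum 15 6) (b_triples.map (·.2.2))) = 720 := by
  obtain ⟨-, -, -, -, -, h⟩ := Core.main_of_checkAll (e := eSum 15 6) exists_rep3 c3_ok'
  rw [h, c3_order]

theorem card1 : Nat.card (Core.H 5 31 (Equiv.refl (Fin 15)) c1_T) = 720 := by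
  obtain ⟨-, -, -, -, -, h⟩ := Core.main_of_checkAll (e := Equiv.refl (Fin 15)) exists_rep1 c1_ok
  rw [h, c1_order]

theorem card2 : Nat.card (Core.H 5 31 (Equiv.refl (Fin 6)) c2_T) = 720 := by
  obtain ⟨-, -, -, -, -, h⟩ := Core.main_of_checkAll (e := Equiv.refl (Fin 6)) exists_rep2 c2_ok
  rw [h, c2_order]

theorem H1_equiv_H2 : Nonempty (Core.H 5 31 (Equiv.refl (Fin 15)) c1_T ≃* Core.H 5 31 (Equiv.refl (Fin 6)) c2_T) := by
  have h := equiv_of_triples (w := 5) (mask := 31) (N₁ := 15) (N₂ := 6) b_triples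
    (fun x hx => exists_rep1 x.1 (by rw [← triples_1]; exact List.mem_map_of_mem hx))
    (fun x hx => exists_rep2 x.2.1 (by rw [← triples_2]; exact List.mem_map_of_mem hx))
    triples_ok
    (by rw [triples_1, card1, card3]) (by rw [triples_2, card2, card3])
  rw [triples_1, triples_2] at h
  exact h

theorem H2_top : Core.H 5 31 (Equiv.refl (Fin 6)) c2_T = ⊤ := by
  apply Subgroup.eq_top_of_card_eq
  rw [card2]
  simp [Nat.card_eq_fintype_card, Fintype.card_perm, Nat.factorial]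

theorem nonempty_zmod : Nonempty (chevB2.group (ZMod 2) ≃* Equiv.Perm (Fin 6)) := by
  have h := Bridge.main (D := chevB2) (p := 2) (S := Sw) (G := b_ents)
    (cert := b_span) (w' := 5) (mask' := 31) (idc' := p1_idc)
    hid1.1 hid1.2 b_omega_ok b_span_ok b_ents_ok b_tabs_ok ?_ ?_ ?_
  · rw [ents_codes, ← group_eq] at h
    obtain ⟨e1⟩ := h
    obtain ⟨e2⟩ := H1_equiv_H2
    rw [H2_top] at e2
    exact ⟨e1.trans (e2.trans Subgroup.topEquiv)⟩
  · rintro W ⟨r, t, rfl⟩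
    exact List.mem_map.1 (letters_mem r t) |>.imp fun x hx => ⟨hx.1, hx.2.symm⟩
  · intro ent hent
    obtain ⟨r, t, h⟩ := ents_of ent hent
    exact ⟨_, ⟨r, t, rfl⟩, h⟩
  · rintro W ⟨r, t, rfl⟩ l hl
    rw [List.mem_singleton] at hl
    subst hl
    exact oks r

theorem nonempty_equiv {F : Type*} [Field F] [Fintype F] (hF : Fintype.card F = 2) :
    Nonempty (chevB2.group F ≃* Equiv.Perm (Fin 6)) := by
  obtain ⟨f⟩ := FieldCongr.nonempty_ringEquiv_zmod hF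
  obtain ⟨e⟩ := FieldCongr.nonempty_group_equiv chevB2 f
  obtain ⟨e'⟩ := nonempty_zmod
  exact ⟨e.trans e'⟩

end Cfsg.Agent.Lib.Chev.B22
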