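import Cfsg.Agent.Lib.Chev.Mono3
import Mathlib.GroupTheory.Coxeter.Basic

/-!
`N/H` is the Coxeter group: an abstract form, given a faithful action of the Coxeter group on the roots.
-/

set_option autoImplicit false
set_option linter.unusedSectionVars false
set_option linter.unusedVariables false

namespace Cfsg.Agent.Lib.Chev.Weyl

open scoped MatrixGroups Matrix
open Cfsg Lie ChevalleyDatum Tables Tables2 Tables3 Raise Basic AxBasic Torus Products Products2 Mono1 Mono2 Mono3

variable {D : ChevalleyDatum} {F : Type*} [Field F]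

/-- Extension of permutations of the roots to `ℕ`. -/
def extP (D : ChevalleyDatum) : Equiv.Perm (Fin D.nroots) →* Equiv.Perm ℕ :=
  Equiv.Perm.extendDomainHom (Fin.equivSubtype (n := D.nroots))

lemma extP_apply_lt (π : Equiv.Perm (Fin D.nroots)) {x : ℕ} (hx : x < D.nroots) :
    extP D π x = (π ⟨x, hx⟩ : Fin D.nroots) := by
  have := Equiv.Perm.extendDomain_apply_image π (Fin.equivSubtype (n := D.nroots)) ⟨x, hx⟩
  simpa [extP, Fin.equivSubtype] using this

lemma extP_apply_ge (π : Equiv.Perm (Fin D.nroots)) {x : ℕ} (hx : ¬ x < D.nroots) : extP D π x = x :=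
  Equiv.Perm.extendDomain_apply_not_subtype π (Fin.equivSubtype (n := D.nroots)) hx

variable (h : Tab D) (h2 : Tab2 D) (ax : Ax D F)

/-- The permutation of the roots on `N`. -/
noncomputable def theta (h : Tab D) (h2 : Tab2 D) (ax : Ax D F) : ↥(D.monomialSubgroup F) →* Equiv.Perm ℕ :=
  (extP D).comp ((piHom h ax h2).comp (Subgroup.inclusion (monomial_le_norSub h h2 ax)))

include h h2 ax

lemma theta_of_isNor {g : ↥(D.monomialSubgroup F)} {π : Equiv.Perm (Fin D.nroots)} {c : Fin D.nroots → Fˣ}
    (H : IsNor h ax g.1 π c) : theta h h2 ax g = extP D π := by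
  simp only [theta, MonoidHom.comp_apply]
  congr 1
  exact piHom_eq h ax h2 H

lemma theta_eq_one_iff (g : ↥(D.monomialSubgroup F)) : theta h h2 ax g = 1 ↔ g.1 ∈ D.diagonalSubgroup F := by
  obtain ⟨π, c, H⟩ := exists_isNor h h2 ax g.2
  rw [theta_of_isNor h h2 ax H]
  constructor
  · intro he
    have hπ : π = 1 := by
      apply Equiv.Perm.extendDomainHom_injective (Fin.equivSubtype (n := D.nroots))
      rw [map_one]
      exact he
    subst hπ
    exact mem_H_of_pos h h2 ax g.2 H (fun s hs => by simpa using hs)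
  · intro ha
    obtain ⟨y, hy⟩ := exists_tor_of_mem ax h ha
    have H' := isNor_tor h ax y
    rw [← hy] at H'
    have := (H.unique h ax h2 H').1
    rw [this, map_one]

lemma theta_sG (i : ℕ) (hi : i < D.rank) (g : ↥(D.monomialSubgroup F)) (hg : g.1 = sG ax i) :
    theta h h2 ax g = extP D (wF h i hi) := by
  obtain ⟨c, H⟩ := exists_isNor_sG h ax h2 (F := F) hi
  rw [← hg] at H
  exact theta_of_isNor h h2 ax H

/-- The range of `theta`. -/
lemma theta_range : (theta h h2 ax).range =
    Subgroup.closure (Set.range fun i : Fin D.rank => extP D (wF h i i.isLt)) := by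
  apply le_antisymm
  · rintro _ ⟨g, rfl⟩
    obtain ⟨a, ha, l, hl, e⟩ := monoS_form h h2 ax (by rw [← monomial_eq_monoS h h2 ax]; exact g.2)
    obtain ⟨c, H⟩ := isNor_mul_nw h h2 ax ha hl
    rw [← e] at H
    rw [theta_of_isNor h h2 ax H]
    have key : ∀ l : List ℕ, (∀ i ∈ l, i < D.rank) → extP D (wPw h l) ∈
        Subgroup.closure (Set.range fun i : Fin D.rank => extP D (wF h i i.isLt)) := by
      intro l
      induction l with
      | nil => intro _; simp
      | cons i l ih =>
        intro hl'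
        have hi := hl' i (List.mem_cons_self)
        rw [wPw_cons, map_mul, wP_of_lt h hi]
        refine Subgroup.mul_mem _ (Subgroup.subset_closure ⟨⟨i, hi⟩, rfl⟩) (ih fun j hj => hl' j (List.mem_cons_of_mem _ hj))
    exact key l hl
  · rw [Subgroup.closure_le]
    rintro _ ⟨i, rfl⟩
    have hm : sG ax i ∈ D.monomialSubgroup F := by
      rw [monomial_eq_monoS h h2 ax]
      exact sG_mem_monoS ax i.isLt
    exact ⟨⟨sG ax i, hm⟩, theta_sG h h2 ax i i.isLt _ rfl⟩

/-- `N/H` is the Coxeter group. -/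
theorem exists_hom_coxeter {n0 : ℕ} (M : CoxeterMatrix (Fin n0)) (hn : n0 = D.rank) (π₀ : M.Group →* Equiv.Perm ℕ)
    (hinj : Function.Injective π₀)
    (hπ : ∀ (i : Fin n0), π₀ (M.simple i) = extP D (wF h i (hn ▸ i.isLt))) :
    ∃ φ : ↥(D.monomialSubgroup F) →* M.Group, Function.Surjective φ ∧
      φ.ker = (D.diagonalSubgroup F).subgroupOf (D.monomialSubgroup F) ∧
      ∀ (i : Fin n0) (g : ↥(D.monomialSubgroup F)),
        ((g : GL D.Idx F) : Matrix D.Idx D.Idx F) = D.nMat F (D.simple i) 1 → φ g = M.simple i := by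
  subst hn
  have hr : π₀.range = (theta h h2 ax).range := by
    rw [theta_range h h2 ax, MonoidHom.range_eq_map, ← M.toCoxeterSystem.subgroup_closure_range_simple,
      MonoidHom.map_closure]
    congr 1
    ext p
    constructor
    · rintro ⟨_, ⟨i, rfl⟩, rfl⟩
      exact ⟨i, by
        show _ = π₀ (M.toCoxeterSystem.simple i)
        rw [CoxeterMatrix.toCoxeterSystem_simple, hπ]⟩
    · rintro ⟨i, rfl⟩
      exact ⟨_, ⟨i, rfl⟩, by
        show π₀ (M.toCoxeterSystem.simple i) = _
        rw [CoxeterMatrix.toCoxeterSystem_simple, hπ]⟩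
  have hmem : ∀ g, theta h h2 ax g ∈ π₀.range := fun g => by rw [hr]; exact ⟨g, rfl⟩
  let φ : ↥(D.monomialSubgroup F) →* M.Group :=
    (MonoidHom.ofInjective hinj).symm.toMonoidHom.comp ((theta h h2 ax).codRestrict π₀.range hmem)
  have hφ : ∀ g, π₀ (φ g) = theta h h2 ax g := by
    intro g
    have := (MonoidHom.ofInjective hinj).apply_symm_apply ((theta h h2 ax).codRestrict π₀.range hmem g)
    exact congrArg Subtype.val this
  refine ⟨φ, ?_, ?_, ?_⟩
  · intro w
    have : π₀ w ∈ (theta h h2 ax).range := by rw [← hr]; exact ⟨w, rfl⟩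
    obtain ⟨g, hg⟩ := this
    exact ⟨g, hinj (by rw [hφ, hg])⟩
  · ext g
    rw [MonoidHom.mem_ker, Subgroup.mem_subgroupOf, ← theta_eq_one_iff h h2 ax, ← hφ]
    constructor
    · intro e
      rw [e, map_one]
    · intro e
      exact hinj (by rw [e, map_one])
  · intro i g hg
    apply hinj
    rw [hφ, hπ]
    exact theta_sG h h2 ax i i.isLt g (Units.ext (by rw [hg, sG_val]))

end Cfsg.Agent.Lib.Chev.Weyl
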